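import Mathlib
import Cfsg.Agent.Lib.Forms.Represent

/-! Classification of nondegenerate quadratic forms over finite fields of odd order. -/
set_option autoImplicit false

namespace CfsgLib.Forms.Classify

variable {F : Type*} [Field F] {V : Type*} [AddCommGroup V] [Module F V]

theorem disc_rel {ι : Type*} [Fintype ι] [DecidableEq ι] (B : LinearMap.BilinForm F V)
    (u w : Module.Basis ι F V) (hu : ∀ i j, i ≠ j → B (u i) (u j) = 0) (hw : ∀ i j, i ≠ j → B (w i) (w j) = 0) :
    IsSquare ((∏ i, B (u i) (u i)) * ∏ i, B (w i) (w i)) := by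
  have hdiag : ∀ b : Module.Basis ι F V, (∀ i j, i ≠ j → B (b i) (b j) = 0) →
      (LinearMap.BilinForm.toMatrix b B).det = ∏ i, B (b i) (b i) := by
    intro b hb
    have : LinearMap.BilinForm.toMatrix b B = Matrix.diagonal fun i => B (b i) (b i) := by
      ext i j
      rw [LinearMap.BilinForm.toMatrix_apply]
      by_cases h : i = j
      · subst h; simp
      · rw [Matrix.diagonal_apply_ne _ h, hb i j h]
    rw [this, Matrix.det_diagonal]
  rw [← hdiag u hu, ← hdiag w hw, ← LinearMap.BilinForm.toMatrix_mul_basis_toMatrix u w B,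
    Matrix.det_mul, Matrix.det_mul, Matrix.det_transpose]
  exact ⟨(LinearMap.BilinForm.toMatrix u B).det * (u.toMatrix w).det, by ring⟩

theorem polar_symm (Q : QuadraticForm F V) : LinearMap.BilinForm.IsSymm (QuadraticMap.polarBilin Q) :=
  ⟨fun x y => QuadraticMap.polar_comm Q x y⟩

theorem two_mul_apply (Q : QuadraticForm F V) (x : V) : 2 * Q x = QuadraticMap.polarBilin Q x x := by
  simp [QuadraticMap.polar_self]

/-- a normal basis for the polar form, with the class of the last value -/
theorem exists_basis [Finite F] [FiniteDimensional F V] (h2 : (2 : F) ≠ 0) (Q : QuadraticForm F V)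
    (hQ : (QuadraticMap.polarBilin Q).Nondegenerate) {n : ℕ} (hn : Module.finrank F V = n + 1)
    {α : F} (hα : ¬ IsSquare α) :
    ∃ (b : Module.Basis (Fin (n + 1)) F V) (a : F), (a = 1 ∨ a = α) ∧
      ∀ i j, QuadraticMap.polarBilin Q (b i) (b j) = if i = j then (if i = Fin.last n then a else 1) else 0 := by
  obtain ⟨v, hv, h1, hlast⟩ := Represent.normal_form h2 (QuadraticMap.polarBilin Q) (polar_symm Q) hQ hn α hα
  have hne : ∀ i, QuadraticMap.polarBilin Q (v i) (v i) ≠ 0 := fun i => by
    by_cases hi : i = Fin.last n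
    · subst hi
      rcases hlast with h | h <;> rw [h]
      · exact one_ne_zero
      · rintro rfl; exact hα IsSquare.zero
    · rw [h1 i hi]; exact one_ne_zero
  have hli := Diag.indep (QuadraticMap.polarBilin Q) v hv hne
  refine ⟨basisOfLinearIndependentOfCardEqFinrank' _ hli (by simp [hn]), _, hlast, fun i j => ?_⟩
  rw [coe_basisOfLinearIndependentOfCardEqFinrank']
  split_ifs with h1' h2'
  · subst h1'; subst h2'; rfl
  · subst h1'; exact h1 i h2'
  · exact hv i j h1'

theorem isometry_of_basis {W : Type*} [AddCommGroup W] [Module F W] (h2 : (2 : F) ≠ 0) (Q : QuadraticForm F V)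
    (R : QuadraticForm F W) {ι : Type*} (b : Module.Basis ι F V) (b' : Module.Basis ι F W) (c : F)
    (h : ∀ i j, QuadraticMap.polarBilin R (b' i) (b' j) = c * QuadraticMap.polarBilin Q (b i) (b j)) (v : V) :
    R (b.equiv b' (Equiv.refl ι) v) = c * Q v := by
  have key : (QuadraticMap.polarBilin R).compl₁₂ (b.equiv b' (Equiv.refl ι)).toLinearMap
      (b.equiv b' (Equiv.refl ι)).toLinearMap = c • QuadraticMap.polarBilin Q := by
    refine LinearMap.ext_basis b b fun i j => ?_
    simpa using h i j
  have := LinearMap.congr_fun (LinearMap.congr_fun key v) v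
  simp only [LinearMap.compl₁₂_apply, LinearMap.smul_apply, smul_eq_mul, LinearEquiv.coe_coe, ← two_mul_apply] at this
  exact mul_left_cancel₀ h2 (by linear_combination this)

theorem similar_of_odd [Finite F] [FiniteDimensional F V] {W : Type*} [AddCommGroup W] [Module F W]
    [FiniteDimensional F W] (h2 : (2 : F) ≠ 0) {n : ℕ} (hn : Even n) (hV : Module.finrank F V = n + 1)
    (hW : Module.finrank F W = n + 1) (Q : QuadraticForm F V) (R : QuadraticForm F W)
    (hQ : (QuadraticMap.polarBilin Q).Nondegenerate) (hR : (QuadraticMap.polarBilin R).Nondegenerate) :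
    ∃ (g : V ≃ₗ[F] W) (c : F), c ≠ 0 ∧ ∀ v, R (g v) = c * Q v := by
  obtain ⟨α, hα⟩ := FiniteField.exists_nonsquare (F := F) (fun h => h2 (by
    haveI : CharP F 2 := ringChar.of_eq h
    exact CharTwo.two_eq_zero))
  have hα0 : α ≠ 0 := by rintro rfl; exact hα IsSquare.zero
  obtain ⟨u, a, ha, hu⟩ := exists_basis h2 R hR hW hα
  obtain ⟨b, a₀, ha₀, hb⟩ := exists_basis h2 Q hQ hV hα
  by_cases heq : a = a₀
  · exact ⟨b.equiv u (Equiv.refl _), 1, one_ne_zero, isometry_of_basis h2 Q R b u 1 fun i j => by
      rw [hu, hb, heq, one_mul]⟩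
  have hQ' : (QuadraticMap.polarBilin (α • Q)).Nondegenerate := by
    have e : QuadraticMap.polarBilin (α • Q) = α • QuadraticMap.polarBilin Q := by
      refine LinearMap.ext fun x => LinearMap.ext fun y => ?_
      simp [QuadraticMap.polar_smul]
    rw [e]
    exact ⟨fun x hx => hQ.1 x fun y => by simpa [hα0] using hx y, fun x hx => hQ.2 x fun y => by simpa [hα0] using hx y⟩
  obtain ⟨b', a', ha', hb'⟩ := exists_basis h2 (α • Q) hQ' hV hα
  have hsq := disc_rel (QuadraticMap.polarBilin (α • Q)) b b' (fun i j h => by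
    have := hb i j
    rw [if_neg h] at this
    simp only [QuadraticMap.polarBilin_apply_apply] at this ⊢
    simp [QuadraticMap.polar_smul, this]) (fun i j h => by rw [hb', if_neg h])
  have e1 : ∏ i, QuadraticMap.polarBilin (α • Q) (b i) (b i) = α ^ (n + 1) * a₀ := by
    have : ∀ i, QuadraticMap.polarBilin (α • Q) (b i) (b i) = α * if i = Fin.last n then a₀ else 1 := fun i => by
      have h := hb i i
      rw [if_pos rfl] at h
      simp only [QuadraticMap.polarBilin_apply_apply] at h ⊢
      simp [QuadraticMap.polar_smul, h]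
    rw [Finset.prod_congr rfl fun i _ => this i, Finset.prod_mul_distrib, Finset.prod_const]; simp
  have e2 : ∏ i, QuadraticMap.polarBilin (α • Q) (b' i) (b' i) = a' := by simp [hb']
  rw [e1, e2] at hsq
  obtain ⟨k, rfl⟩ := hn
  have hαk : α ^ k ≠ 0 := pow_ne_zero _ hα0
  have hne' : ¬ IsSquare α := hα
  have hx : IsSquare (α * a₀ * a') := by
    obtain ⟨r, hr⟩ := hsq
    exact ⟨r / α ^ k, by field_simp; linear_combination hr⟩
  have haa : a' = a := by
    rcases ha₀ with rfl | rfl <;> rcases ha' with rfl | rfl <;> rcases ha with rfl | rfl <;>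
      first
        | rfl
        | exact absurd rfl heq
        | exact absurd (by simpa using hx) hne'
        | (exfalso; apply hne'; obtain ⟨r, hr⟩ := hx; exact ⟨r / a', by field_simp; linear_combination hr⟩)
  refine ⟨b'.equiv u (Equiv.refl _), α, hα0, fun v => ?_⟩
  rw [isometry_of_basis h2 (α • Q) R b' u 1 (fun i j => by rw [hu, hb', haa, one_mul]) v]
  simp

end CfsgLib.Forms.Classify
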