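import Mathlib
import Cfsg.Prelude.Def_ClassicalGeometry

/-! The stabiliser of a summand of an orthogonal sum is the product of the two isometry groups. -/
set_option autoImplicit false

namespace CfsgLib.Forms.SplitStab
open scoped Matrix

variable {F : Type*} [Field F] {ι ι₁ ι₂ : Type} [Fintype ι] [DecidableEq ι] [Fintype ι₁] [DecidableEq ι₁]
  [Fintype ι₂] [DecidableEq ι₂]

/-- the matrix of a pair of matrices in coordinates given by `E` -/
noncomputable def block (E : ((ι₁ → F) × (ι₂ → F)) ≃ₗ[F] (ι → F)) :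
    Matrix ι₁ ι₁ F × Matrix ι₂ ι₂ F →* Matrix ι ι F where
  toFun M := LinearMap.toMatrix' (E.toLinearMap ∘ₗ LinearMap.prodMap M.1.mulVecLin M.2.mulVecLin ∘ₗ E.symm.toLinearMap)
  map_one' := by
    apply Matrix.toLin'.injective
    refine LinearMap.ext fun v => ?_
    simp
  map_mul' M N := by
    apply Matrix.toLin'.injective
    refine LinearMap.ext fun v => ?_
    simp [Matrix.toLin'_mul, Matrix.mulVec_mulVec]

theorem block_mulVec (E : ((ι₁ → F) × (ι₂ → F)) ≃ₗ[F] (ι → F)) (M : Matrix ι₁ ι₁ F × Matrix ι₂ ι₂ F) (a : ι₁ → F)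
    (b : ι₂ → F) : block E M *ᵥ E (a, b) = E (M.1 *ᵥ a, M.2 *ᵥ b) := by
  show LinearMap.toMatrix' _ *ᵥ E (a, b) = _
  rw [LinearMap.toMatrix'_mulVec]
  simp

/-- the induced map of general linear groups -/
noncomputable def blockGL (E : ((ι₁ → F) × (ι₂ → F)) ≃ₗ[F] (ι → F)) : GL ι₁ F × GL ι₂ F →* GL ι F :=
  (Units.map (block E)).comp MulEquiv.prodUnits.symm.toMonoidHom

theorem blockGL_mulVec (E : ((ι₁ → F) × (ι₂ → F)) ≃ₗ[F] (ι → F)) (p : GL ι₁ F × GL ι₂ F) (a : ι₁ → F)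
    (b : ι₂ → F) : (blockGL E p).1 *ᵥ E (a, b) = E (p.1.1 *ᵥ a, p.2.1 *ᵥ b) :=
  block_mulVec E (p.1.1, p.2.1) a b

theorem stab_equiv {f : (ι → F) → (ι → F) → F} {f₁ : (ι₁ → F) → (ι₁ → F) → F} {f₂ : (ι₂ → F) → (ι₂ → F) → F}
    (E : ((ι₁ → F) × (ι₂ → F)) ≃ₗ[F] (ι → F))
    (hE : ∀ a b a' b', f (E (a, b)) (E (a', b')) = f₁ a a' + f₂ b b')
    (h₁ : ∀ a, f₁ a 0 = 0 ∧ f₁ 0 a = 0) (h₂ : ∀ b, f₂ b 0 = 0 ∧ f₂ 0 b = 0)
    (hnd : ∀ u, (∀ x, f₁ x u = 0) → u = 0) (W : Submodule F (ι → F)) (hW : ∀ a b, E (a, b) ∈ W ↔ b = 0) :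
    Nonempty (↥(Cfsg.stabilizing (Cfsg.glToMat ι F) (W : Set (ι → F)) ⊓ Cfsg.preserving (Cfsg.glToMat ι F) f) ≃*
      ↥(Cfsg.preserving (Cfsg.glToMat ι₁ F) f₁) × ↥(Cfsg.preserving (Cfsg.glToMat ι₂ F) f₂)) := by
  let ψ : ↥(Cfsg.preserving (Cfsg.glToMat ι₁ F) f₁) × ↥(Cfsg.preserving (Cfsg.glToMat ι₂ F) f₂) →* GL ι F :=
    (blockGL E).comp ((Cfsg.preserving (Cfsg.glToMat ι₁ F) f₁).subtype.prodMap
      (Cfsg.preserving (Cfsg.glToMat ι₂ F) f₂).subtype)
  have hψ : ∀ p a b, (ψ p).1 *ᵥ E (a, b) = E (p.1.1.1 *ᵥ a, p.2.1.1 *ᵥ b) := fun p a b => blockGL_mulVec E _ a b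
  have hinj : Function.Injective ψ := by
    intro p r h
    have key : ∀ a b, (p.1.1.1 *ᵥ a, p.2.1.1 *ᵥ b) = (r.1.1.1 *ᵥ a, r.2.1.1 *ᵥ b) := fun a b =>
      E.injective (by rw [← hψ, ← hψ, h])
    refine Prod.ext (Subtype.ext (Units.ext (Matrix.ext_of_mulVec_single fun i => ?_)))
      (Subtype.ext (Units.ext (Matrix.ext_of_mulVec_single fun i => ?_)))
    · exact congrArg Prod.fst (key (Pi.single i 1) 0)
    · exact congrArg Prod.snd (key 0 (Pi.single i 1))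
  have hrange : ψ.range = Cfsg.stabilizing (Cfsg.glToMat ι F) (W : Set (ι → F)) ⊓ Cfsg.preserving (Cfsg.glToMat ι F) f := by
    apply le_antisymm
    · rintro _ ⟨p, rfl⟩
      refine ⟨fun v => ?_, fun u v => ?_⟩
      · obtain ⟨⟨a, b⟩, rfl⟩ := E.surjective v
        show E (a, b) ∈ W ↔ (ψ p).1 *ᵥ E (a, b) ∈ W
        rw [hψ, hW, hW]
        refine ⟨fun h => by rw [h, Matrix.mulVec_zero], fun h => ?_⟩
        have h' := congrArg (fun z => (p.2.1⁻¹ : GL ι₂ F).1 *ᵥ z) h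
        simpa [Matrix.mulVec_mulVec] using h'
      · obtain ⟨⟨a, b⟩, rfl⟩ := E.surjective u
        obtain ⟨⟨a', b'⟩, rfl⟩ := E.surjective v
        show f ((ψ p).1 *ᵥ E (a, b)) ((ψ p).1 *ᵥ E (a', b')) = _
        rw [hψ, hψ, hE, hE]
        exact congrArg₂ (· + ·) (p.1.2 a a') (p.2.2 b b')
    · rintro g ⟨hgW, hgf⟩
      have hgW' : ∀ v, v ∈ W ↔ g.1 *ᵥ v ∈ W := hgW
      have hgf' : ∀ u v, f (g.1 *ᵥ u) (g.1 *ᵥ v) = f u v := hgf
      have hWimg : ∀ x, ∃ a, g.1 *ᵥ E (a, 0) = E (x, 0) := fun x => by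
        obtain ⟨⟨a, b⟩, hab⟩ := E.surjective ((g⁻¹ : GL ι F).1 *ᵥ E (x, 0))
        have hg : g.1 *ᵥ E (a, b) = E (x, 0) := by
          rw [hab, Matrix.mulVec_mulVec, ← Units.val_mul, mul_inv_cancel, Units.val_one, Matrix.one_mulVec]
        have hb : b = 0 := (hW a b).1 ((hgW' _).2 (by rw [hg]; exact (hW x 0).2 rfl))
        exact ⟨a, hb ▸ hg⟩
      have hA : ∀ a, g.1 *ᵥ E (a, 0) = E ((E.symm (g.1 *ᵥ E (a, 0))).1, 0) := fun a => by
        obtain ⟨⟨x, y⟩, hxy⟩ := E.surjective (g.1 *ᵥ E (a, 0))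
        have hy : y = 0 := (hW x y).1 (by rw [hxy]; exact (hgW' _).1 ((hW a 0).2 rfl))
        rw [← hxy, E.symm_apply_apply, hy]
      have hB : ∀ b, g.1 *ᵥ E (0, b) = E (0, (E.symm (g.1 *ᵥ E (0, b))).2) := fun b => by
        obtain ⟨⟨x, y⟩, hxy⟩ := E.surjective (g.1 *ᵥ E (0, b))
        have hx : x = 0 := hnd x fun z => by
          obtain ⟨a, ha⟩ := hWimg z
          have h := hgf' (E (a, 0)) (E (0, b))
          rw [ha, ← hxy, hE, hE, (h₂ y).2, (h₁ a).1, (h₂ b).2] at h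
          simpa using h
        rw [← hxy, E.symm_apply_apply, hx]
      let LA : (ι₁ → F) →ₗ[F] (ι₁ → F) := (LinearMap.fst F _ _) ∘ₗ E.symm.toLinearMap ∘ₗ g.1.mulVecLin ∘ₗ
        E.toLinearMap ∘ₗ LinearMap.inl F _ _
      let LB : (ι₂ → F) →ₗ[F] (ι₂ → F) := (LinearMap.snd F _ _) ∘ₗ E.symm.toLinearMap ∘ₗ g.1.mulVecLin ∘ₗ
        E.toLinearMap ∘ₗ LinearMap.inr F _ _
      have hgE : ∀ a b, g.1 *ᵥ E (a, b) = E (LA a, LB b) := fun a b => by
        have hab : ((a, b) : (ι₁ → F) × (ι₂ → F)) = (a, 0) + (0, b) := by simp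
        rw [hab, map_add, Matrix.mulVec_add, hA, hB, ← map_add, Prod.mk_add_mk, add_zero, zero_add]
        rfl
      have injA : Function.Injective LA := by
        rw [injective_iff_map_eq_zero]
        intro a ha
        have h := hgE a 0
        rw [ha, map_zero, show ((0 : ι₁ → F), (0 : ι₂ → F)) = 0 from rfl, map_zero] at h
        have h' := congrArg (fun z => (g⁻¹ : GL ι F).1 *ᵥ z) h
        simp [Matrix.mulVec_mulVec] at h'
        exact h'
      have injB : Function.Injective LB := by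
        rw [injective_iff_map_eq_zero]
        intro b hb
        have h := hgE 0 b
        rw [hb, map_zero, show ((0 : ι₁ → F), (0 : ι₂ → F)) = 0 from rfl, map_zero] at h
        have h' := congrArg (fun z => (g⁻¹ : GL ι F).1 *ᵥ z) h
        simp [Matrix.mulVec_mulVec] at h'
        exact h'
      let A : GL ι₁ F := ((Matrix.mulVec_injective_iff_isUnit (A := LinearMap.toMatrix' LA)).1 (fun u v h => injA (by
        simpa [LinearMap.toMatrix'_mulVec] using h))).unit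
      let B : GL ι₂ F := ((Matrix.mulVec_injective_iff_isUnit (A := LinearMap.toMatrix' LB)).1 (fun u v h => injB (by
        simpa [LinearMap.toMatrix'_mulVec] using h))).unit
      have hAm : ∀ a, A.1 *ᵥ a = LA a := fun a => LinearMap.toMatrix'_mulVec LA a
      have hBm : ∀ b, B.1 *ᵥ b = LB b := fun b => LinearMap.toMatrix'_mulVec LB b
      refine ⟨(⟨A, fun a a' => ?_⟩, ⟨B, fun b b' => ?_⟩), Units.ext (Matrix.ext_of_mulVec_single fun i => ?_)⟩
      · show f₁ (A.1 *ᵥ a) (A.1 *ᵥ a') = f₁ a a'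
        have h := hgf' (E (a, 0)) (E (a', 0))
        rw [hgE, hgE, hE, hE, map_zero, (h₂ 0).1, add_zero, add_zero] at h
        rw [hAm, hAm, h]
      · show f₂ (B.1 *ᵥ b) (B.1 *ᵥ b') = f₂ b b'
        have h := hgf' (E (0, b)) (E (0, b'))
        rw [hgE, hgE, hE, hE, map_zero, (h₁ 0).1, zero_add, zero_add] at h
        rw [hBm, hBm, h]
      · obtain ⟨⟨a, b⟩, hab⟩ := E.surjective (Pi.single i 1)
        rw [← hab, hψ, hgE, hAm, hBm]
  exact ⟨((MonoidHom.ofInjective hinj).trans (MulEquiv.subgroupCongr hrange)).symm⟩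

/-- vectors summing to coordinates -/
theorem exists_coords {κ₁ κ₂ : Type} [Fintype κ₁] [DecidableEq κ₁] [Fintype κ₂] [DecidableEq κ₂] (u : κ₁ → (ι → F))
    (v : κ₂ → (ι → F)) (hli : LinearIndependent F (Sum.elim u v)) (hc : Fintype.card κ₁ + Fintype.card κ₂ = Fintype.card ι) :
    ∃ E : ((κ₁ → F) × (κ₂ → F)) ≃ₗ[F] (ι → F), ∀ a b, E (a, b) = (∑ i, a i • u i) + ∑ j, b j • v j := by
  let L : ((κ₁ → F) × (κ₂ → F)) →ₗ[F] (ι → F) := (Fintype.linearCombination F u).coprod (Fintype.linearCombination F v)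
  have hL : ∀ a b, L (a, b) = (∑ i, a i • u i) + ∑ j, b j • v j := fun a b => by
    simp [L, Fintype.linearCombination_apply]
  have hinj : Function.Injective L := by
    rw [injective_iff_map_eq_zero]
    rintro ⟨a, b⟩ h
    rw [hL] at h
    have h' := Fintype.linearIndependent_iff.1 hli (Sum.elim a b) (by simpa [Fintype.sum_sum_type] using h)
    exact Prod.ext (funext fun i => h' (Sum.inl i)) (funext fun j => h' (Sum.inr j))
  exact ⟨LinearEquiv.ofInjectiveOfFinrankEq L hinj (by simp [hc]), hL⟩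

end CfsgLib.Forms.SplitStab
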