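import Mathlib
import Cfsg.Agent.Lib.Forms.SplitStab

/-! Complements of non-degenerate subspaces and adapted families of vectors. -/
set_option autoImplicit false

namespace CfsgLib.Forms.Families
open scoped Matrix

variable {F : Type*} [Field F] {ι : Type} [Fintype ι] [DecidableEq ι]

/-- a reflexive sesquilinear function -/
structure Form (σ : F → F) (f : (ι → F) → (ι → F) → F) : Prop where
  add_left : ∀ x y v, f (x + y) v = f x v + f y v
  smul_left : ∀ (c : F) x v, f (c • x) v = c * f x v
  add_right : ∀ v x y, f v (x + y) = f v x + f v y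
  smul_right : ∀ (c : F) v x, f v (c • x) = σ c * f v x
  refl : ∀ x y, f x y = 0 → f y x = 0

variable {σ : F → F} {f : (ι → F) → (ι → F) → F}

theorem zero_left (h : Form σ f) (v : ι → F) : f 0 v = 0 := by
  have := h.add_left 0 0 v
  rw [add_zero] at this
  exact left_eq_add.1 this

theorem zero_right (h : Form σ f) (v : ι → F) : f v 0 = 0 := by
  have := h.add_right v 0 0
  rw [add_zero] at this
  exact left_eq_add.1 this

theorem sum_left (h : Form σ f) {α : Type*} (s : Finset α) (x : α → (ι → F)) (v : ι → F) :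
    f (∑ i ∈ s, x i) v = ∑ i ∈ s, f (x i) v :=
  map_sum (⟨⟨fun u => f u v, zero_left h v⟩, fun u u' => h.add_left u u' v⟩ : (ι → F) →+ F) _ _

theorem sum_right (h : Form σ f) {α : Type*} (s : Finset α) (x : α → (ι → F)) (v : ι → F) :
    f v (∑ i ∈ s, x i) = ∑ i ∈ s, f v (x i) :=
  map_sum (⟨⟨fun u => f v u, zero_right h v⟩, fun u u' => h.add_right v u u'⟩ : (ι → F) →+ F) _ _

theorem expand (h : Form σ f) {α β : Type*} [Fintype α] [Fintype β] (a : α → F) (b : β → F) (u : α → (ι → F))
    (v : β → (ι → F)) : f (∑ i, a i • u i) (∑ j, b j • v j) = ∑ i, ∑ j, a i * (σ (b j) * f (u i) (v j)) := by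
  rw [sum_left h]
  refine Finset.sum_congr rfl fun i _ => ?_
  rw [h.smul_left, sum_right h, Finset.mul_sum]
  exact Finset.sum_congr rfl fun j _ => by rw [h.smul_right]

/-- the orthogonal complement -/
def perp (h : Form σ f) (W : Submodule F (ι → F)) : Submodule F (ι → F) where
  carrier := {x | ∀ w ∈ W, f x w = 0}
  add_mem' := fun {x y} hx hy w hw => by rw [h.add_left, hx w hw, hy w hw, add_zero]
  zero_mem' := fun w _ => zero_left h w
  smul_mem' := fun c x hx w hw => by rw [h.smul_left, hx w hw, mul_zero]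

theorem complement (h : Form σ f) (hnd : ∀ u, (∀ v, f u v = 0) → u = 0) {W : Submodule F (ι → F)}
    (hW : ∀ u ∈ W, (∀ v ∈ W, f u v = 0) → u = 0) :
    Module.finrank F W + Module.finrank F (perp h W) = Fintype.card ι ∧
      ∀ u ∈ perp h W, (∀ v ∈ perp h W, f u v = 0) → u = 0 := by
  let b := Module.finBasis F W
  let Φ : (ι → F) →ₗ[F] (Fin (Module.finrank F W) → F) :=
    { toFun := fun x j => f x (b j).1
      map_add' := fun x y => funext fun j => h.add_left x y _
      map_smul' := fun c x => funext fun j => h.smul_left c x _ }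
  have hker : LinearMap.ker Φ ≤ perp h W := fun x hx w hw => by
    rw [show w = ((∑ j, b.repr ⟨w, hw⟩ j • b j : W) : ι → F) by rw [b.sum_repr]]
    rw [Submodule.coe_sum, sum_right h]
    refine Finset.sum_eq_zero fun j _ => ?_
    rw [Submodule.coe_smul, h.smul_right]
    have := congrFun (LinearMap.mem_ker.1 hx) j
    change f x (b j).1 = 0 at this
    rw [this, mul_zero]
  have hdis : W ⊓ perp h W = ⊥ := (Submodule.eq_bot_iff _).2 fun x hx => hW x hx.1 hx.2
  have h1 := Φ.finrank_range_add_finrank_ker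
  have h2 := (LinearMap.range Φ).finrank_le
  rw [Module.finrank_fin_fun] at h2
  rw [Module.finrank_fintype_fun_eq_card] at h1
  have h3 := Submodule.finrank_mono hker
  have h4 := Submodule.finrank_sup_add_finrank_inf_eq W (perp h W)
  rw [hdis, finrank_bot, add_zero] at h4
  have h5 := (W ⊔ perp h W).finrank_le
  rw [Module.finrank_fintype_fun_eq_card] at h5
  have hd : Module.finrank F W + Module.finrank F (perp h W) = Fintype.card ι := by omega
  refine ⟨hd, fun u hu huo => hnd u fun v => ?_⟩
  have htop : W ⊔ perp h W = ⊤ := Submodule.eq_top_of_finrank_eq (by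
    rw [Module.finrank_fintype_fun_eq_card]; omega)
  obtain ⟨a, ha, c, hc, rfl⟩ := Submodule.mem_sup.1 (htop ▸ Submodule.mem_top : v ∈ W ⊔ perp h W)
  rw [h.add_right, hu a ha, huo c hc, add_zero]

/-- symplectic families -/
theorem symplectic_family (h : Form σ f) (hσ : ∀ c, σ c = c) (halt : ∀ x, f x x = 0) (k : ℕ) :
    ∀ W : Submodule F (ι → F), Module.finrank F W = 2 * k → (∀ u ∈ W, (∀ v ∈ W, f u v = 0) → u = 0) →
      ∃ e g : Fin k → (ι → F), (∀ i, e i ∈ W) ∧ (∀ i, g i ∈ W) ∧ (∀ i j, f (e i) (e j) = 0) ∧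
        (∀ i j, f (g i) (g j) = 0) ∧ ∀ i j, f (g i) (e j) = if i = j then 1 else 0 := by
  have hskew : ∀ x y, f y x = -f x y := fun x y => by
    have := halt (x + y)
    rw [h.add_left, h.add_right, h.add_right, halt, halt] at this
    linear_combination this
  induction k with
  | zero => exact fun W _ _ => ⟨fun i => i.elim0, fun i => i.elim0, fun i => i.elim0, fun i => i.elim0,
      fun i => i.elim0, fun i => i.elim0, fun i => i.elim0⟩
  | succ k ih =>
    intro W hd hW
    obtain ⟨u, hu, hu0⟩ := Submodule.exists_mem_ne_zero_of_ne_bot (p := W) (fun e => by rw [e, finrank_bot] at hd; omega)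
    obtain ⟨v, hv, hvu⟩ : ∃ v ∈ W, f v u = 1 := by
      by_contra hno
      push Not at hno
      apply hu0
      refine hW u hu fun v hv => ?_
      by_contra hne
      refine hno ((f v u)⁻¹ • v) (W.smul_mem _ hv) ?_
      rw [h.smul_left, inv_mul_cancel₀]
      exact fun e => hne (h.refl v u e)
    let K : Submodule F (ι → F) := W ⊓ perp h (Submodule.span F {u, v})
    have hK : ∀ x, x ∈ K ↔ x ∈ W ∧ f x u = 0 ∧ f x v = 0 := fun x => by
      constructor
      · exact fun hx => ⟨hx.1, hx.2 u (Submodule.subset_span (by simp)), hx.2 v (Submodule.subset_span (by simp))⟩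
      · rintro ⟨h1, h2, h3⟩
        refine ⟨h1, fun w hw => ?_⟩
        obtain ⟨a, b, rfl⟩ := Submodule.mem_span_pair.1 hw
        rw [h.add_right, h.smul_right, h.smul_right, h2, h3, mul_zero, mul_zero, add_zero]
    have huv : f u v = -1 := by rw [hskew v u, hvu]
    have hsup : W ≤ K ⊔ Submodule.span F {u, v} := fun x hx => by
      refine Submodule.mem_sup.2 ⟨x + (f x v) • u + (-f x u) • v,
        (hK _).2 ⟨add_mem (add_mem hx (W.smul_mem _ hu)) (W.smul_mem _ hv), ?_, ?_⟩, _,
        Submodule.mem_span_pair.2 ⟨-(f x v), f x u, rfl⟩, by module⟩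
      · rw [h.add_left, h.add_left, h.smul_left, h.smul_left, halt, hvu]; ring
      · rw [h.add_left, h.add_left, h.smul_left, h.smul_left, halt, huv]; ring
    have hle : Submodule.span F {u, v} ≤ W := Submodule.span_le.2 fun y hy => by
      rcases hy with rfl | rfl <;> assumption
    have hndK : ∀ x ∈ K, (∀ y ∈ K, f x y = 0) → x = 0 := fun x hx hxK => hW x hx.1 fun y hy => by
      obtain ⟨a, ha, b, hb, rfl⟩ := Submodule.mem_sup.1 (hsup hy)
      rw [h.add_right, hxK a ha, hx.2 b hb, add_zero]
    have hdK : Module.finrank F K = 2 * k := by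
      have hli : LinearIndependent F ![u, v] := by
        rw [LinearIndependent.pair_iff]
        intro s t hst
        have h1 := congrArg (fun z => f z v) hst
        have h2 := congrArg (fun z => f z u) hst
        simp only [h.add_left, h.smul_left, halt, huv, hvu, zero_left h] at h1 h2
        exact ⟨by linear_combination -h1, by linear_combination h2⟩
      have hfr : Module.finrank F (Submodule.span F ({u, v} : Set (ι → F))) = 2 := by
        have := finrank_span_eq_card hli
        rw [Matrix.range_cons_cons_empty, Fintype.card_fin] at this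
        exact this
      have h1 := Submodule.finrank_sup_add_finrank_inf_eq K (Submodule.span F {u, v})
      have hinf : K ⊓ Submodule.span F {u, v} = ⊥ := (Submodule.eq_bot_iff _).2 fun x hx => by
        obtain ⟨a, b, rfl⟩ := Submodule.mem_span_pair.1 hx.2
        obtain ⟨-, h3, h4⟩ := (hK _).1 hx.1
        simp only [h.add_left, h.smul_left, halt, huv, hvu] at h3 h4
        rw [show a = 0 by linear_combination -h4, show b = 0 by linear_combination h3, zero_smul, zero_smul, add_zero]
      have hsup' : K ⊔ Submodule.span F {u, v} = W := le_antisymm (sup_le inf_le_left hle) hsup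
      rw [hinf, finrank_bot, add_zero, hsup', hd, hfr] at h1
      omega
    obtain ⟨e, g, he, hg, hee, hgg, hge⟩ := ih K hdK hndK
    refine ⟨Fin.cons u e, Fin.cons v g, fun i => ?_, fun i => ?_, fun i j => ?_, fun i j => ?_, fun i j => ?_⟩
    · cases i using Fin.cases with
      | zero => simpa using hu
      | succ i => simpa using (he i).1
    · cases i using Fin.cases with
      | zero => simpa using hv
      | succ i => simpa using (hg i).1
    · cases i using Fin.cases <;> cases j using Fin.cases <;> simp [halt, hee]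
      · rename_i j; exact h.refl _ _ ((hK _).1 (he j)).2.1
      · rename_i i; exact ((hK _).1 (he i)).2.1
    · cases i using Fin.cases <;> cases j using Fin.cases <;> simp [halt, hgg]
      · rename_i j; exact h.refl _ _ ((hK _).1 (hg j)).2.2
      · rename_i i; exact ((hK _).1 (hg i)).2.2
    · cases i using Fin.cases <;> cases j using Fin.cases <;> simp [hvu, hge, (Fin.succ_ne_zero _).symm]
      · rename_i j; exact h.refl _ _ ((hK _).1 (he j)).2.2
      · rename_i i; exact ((hK _).1 (hg i)).2.1

/-- orthonormal families -/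
theorem unit_family (h : Form σ f) (hnorm : ∀ W : Submodule F (ι → F), W ≠ ⊥ → (∀ u ∈ W, (∀ v ∈ W, f u v = 0) → u = 0) →
      ∃ u ∈ W, f u u = 1) (k : ℕ) :
    ∀ W : Submodule F (ι → F), Module.finrank F W = k → (∀ u ∈ W, (∀ v ∈ W, f u v = 0) → u = 0) →
      ∃ e : Fin k → (ι → F), (∀ i, e i ∈ W) ∧ ∀ i j, f (e i) (e j) = if i = j then 1 else 0 := by
  induction k with
  | zero => exact fun W _ _ => ⟨fun i => i.elim0, fun i => i.elim0, fun i => i.elim0⟩
  | succ k ih =>
    intro W hd hW
    obtain ⟨u, hu, huu⟩ := hnorm W (fun e => by rw [e, finrank_bot] at hd; omega) hW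
    let K : Submodule F (ι → F) := W ⊓ perp h (Submodule.span F {u})
    have hK : ∀ x, x ∈ K ↔ x ∈ W ∧ f x u = 0 := fun x => by
      constructor
      · exact fun hx => ⟨hx.1, hx.2 u (Submodule.mem_span_singleton_self u)⟩
      · rintro ⟨h1, h2⟩
        refine ⟨h1, fun w hw => ?_⟩
        obtain ⟨a, rfl⟩ := Submodule.mem_span_singleton.1 hw
        rw [h.smul_right, h2, mul_zero]
    have hsup : W ≤ K ⊔ Submodule.span F {u} := fun x hx => by
      refine Submodule.mem_sup.2 ⟨x + (-f x u) • u, (hK _).2 ⟨add_mem hx (W.smul_mem _ hu), ?_⟩, _,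
        Submodule.mem_span_singleton.2 ⟨f x u, rfl⟩, by module⟩
      rw [h.add_left, h.smul_left, huu]; ring
    have hndK : ∀ x ∈ K, (∀ y ∈ K, f x y = 0) → x = 0 := fun x hx hxK => hW x hx.1 fun y hy => by
      obtain ⟨a, ha, b, hb, rfl⟩ := Submodule.mem_sup.1 (hsup hy)
      rw [h.add_right, hxK a ha, hx.2 b hb, add_zero]
    have hdK : Module.finrank F K = k := by
      have hu0 : u ≠ 0 := fun e => by rw [e, zero_left h] at huu; exact zero_ne_one huu
      have h1 := Submodule.finrank_sup_add_finrank_inf_eq K (Submodule.span F {u})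
      have hinf : K ⊓ Submodule.span F {u} = ⊥ := (Submodule.eq_bot_iff _).2 fun x hx => by
        obtain ⟨a, rfl⟩ := Submodule.mem_span_singleton.1 hx.2
        have h3 := ((hK _).1 hx.1).2
        rw [h.smul_left, huu, mul_one] at h3
        rw [h3, zero_smul]
      have hsup' : K ⊔ Submodule.span F {u} = W :=
        le_antisymm (sup_le inf_le_left ((Submodule.span_singleton_le_iff_mem u W).2 hu)) hsup
      rw [hinf, finrank_bot, add_zero, hsup', hd, finrank_span_singleton hu0] at h1
      omega
    obtain ⟨e, he, hee⟩ := ih K hdK hndK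
    refine ⟨Fin.cons u e, fun i => ?_, fun i j => ?_⟩
    · cases i using Fin.cases with
      | zero => simpa using hu
      | succ i => simpa using (he i).1
    · cases i using Fin.cases <;> cases j using Fin.cases <;> simp [huu, hee, (Fin.succ_ne_zero _).symm]
      · rename_i j; exact h.refl _ _ ((hK _).1 (he j)).2
      · rename_i i; exact ((hK _).1 (he i)).2

/-- coordinates adapted to two orthogonal families -/
theorem exists_split (h : Form σ f) {κ₁ κ₂ : Type} [Fintype κ₁] [DecidableEq κ₁] [Fintype κ₂] [DecidableEq κ₂]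
    (u : κ₁ → (ι → F)) (v : κ₂ → (ι → F)) {f₁ : (κ₁ → F) → (κ₁ → F) → F} {f₂ : (κ₂ → F) → (κ₂ → F) → F}
    (hu : ∀ a a', f (∑ i, a i • u i) (∑ i, a' i • u i) = f₁ a a')
    (hv : ∀ b b', f (∑ j, b j • v j) (∑ j, b' j • v j) = f₂ b b') (huv : ∀ i j, f (u i) (v j) = 0)
    (hn₁ : ∀ a, (∀ a', f₁ a a' = 0) → a = 0) (hn₂ : ∀ b, (∀ b', f₂ b b' = 0) → b = 0)
    (hc : Fintype.card κ₁ + Fintype.card κ₂ = Fintype.card ι) (W : Submodule F (ι → F)) (huW : ∀ i, u i ∈ W)
    (hWd : Module.finrank F W = Fintype.card κ₁) :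
    ∃ E : ((κ₁ → F) × (κ₂ → F)) ≃ₗ[F] (ι → F), (∀ a b a' b', f (E (a, b)) (E (a', b')) = f₁ a a' + f₂ b b') ∧
      (∀ a b, E (a, b) ∈ W ↔ b = 0) ∧ ∀ a b, E (a, b) = (∑ i, a i • u i) + ∑ j, b j • v j := by
  have hcross : ∀ (a : κ₁ → F) (b : κ₂ → F), f (∑ i, a i • u i) (∑ j, b j • v j) = 0 ∧ f (∑ j, b j • v j) (∑ i, a i • u i) = 0 := fun a b => by
    refine ⟨?_, ?_⟩ <;> rw [expand h] <;> refine Finset.sum_eq_zero fun i _ => Finset.sum_eq_zero fun j _ => ?_
    · rw [huv i j, mul_zero, mul_zero]
    · rw [h.refl _ _ (huv j i), mul_zero, mul_zero]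
  have hform : ∀ a b a' b', f ((∑ i, a i • u i) + ∑ j, b j • v j) ((∑ i, a' i • u i) + ∑ j, b' j • v j) =
      f₁ a a' + f₂ b b' := fun a b a' b' => by
    rw [h.add_left, h.add_right, h.add_right, hu, hv, (hcross a b').1, (hcross a' b).2]; ring
  have hli : LinearIndependent F (Sum.elim u v) := by
    rw [Fintype.linearIndependent_iff]
    intro g hg
    rw [Fintype.sum_sum_type] at hg
    simp only [Sum.elim_inl, Sum.elim_inr] at hg
    have ha : (fun i => g (Sum.inl i)) = 0 := hn₁ _ fun a' => by
      have h1 := hform (fun i => g (Sum.inl i)) (fun j => g (Sum.inr j)) a' 0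
      rw [hg, zero_left h] at h1
      have h2 : f₂ (fun j => g (Sum.inr j)) 0 = 0 := by rw [← hv]; simp [zero_right h]
      rw [h2, add_zero] at h1
      exact h1.symm
    have hb : (fun j => g (Sum.inr j)) = 0 := hn₂ _ fun b' => by
      have h1 := hform (fun i => g (Sum.inl i)) (fun j => g (Sum.inr j)) 0 b'
      rw [hg, zero_left h] at h1
      have h2 : f₁ (fun i => g (Sum.inl i)) 0 = 0 := by rw [← hu]; simp [zero_right h]
      rw [h2, zero_add] at h1
      exact h1.symm
    rintro (i | j)
    · exact congrFun ha i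
    · exact congrFun hb j
  obtain ⟨E, hE⟩ := CfsgLib.Forms.SplitStab.exists_coords u v hli hc
  refine ⟨E, fun a b a' b' => by rw [hE, hE, hform], ?_, hE⟩
  let W₁ : Submodule F (ι → F) := LinearMap.range (E.toLinearMap ∘ₗ LinearMap.inl F (κ₁ → F) (κ₂ → F))
  have hW₁ : W₁ = W := by
    refine Submodule.eq_of_le_of_finrank_eq ?_ ?_
    · rintro _ ⟨a, rfl⟩
      show E (a, 0) ∈ W
      rw [hE]
      simp only [Pi.zero_apply, zero_smul, Finset.sum_const_zero, add_zero]
      exact Submodule.sum_mem _ fun i _ => W.smul_mem _ (huW i)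
    · show Module.finrank F (LinearMap.range (E.toLinearMap ∘ₗ LinearMap.inl F (κ₁ → F) (κ₂ → F))) = _
      rw [LinearMap.finrank_range_of_inj (f := E.toLinearMap ∘ₗ LinearMap.inl F (κ₁ → F) (κ₂ → F))
        (fun a a' e => congrArg Prod.fst (E.injective e)), Module.finrank_fintype_fun_eq_card, hWd]
  intro a b
  rw [← hW₁]
  constructor
  · rintro ⟨a', ha'⟩
    exact (congrArg Prod.snd (E.injective ha')).symm
  · rintro rfl
    exact ⟨a, rfl⟩

end CfsgLib.Forms.Families
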