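import Mathlib
import Cfsg.Agent.Lib.Forms.Families

/-! Counting totally isotropic two-dimensional subspaces. -/
set_option autoImplicit false

namespace CfsgLib.Forms.SingularLines
open CfsgLib.Forms.Families

variable {F : Type*} [Field F] [Fintype F] {ι : Type} [Fintype ι] [DecidableEq ι] {σ : F → F}
  {f : (ι → F) → (ι → F) → F}

theorem card_mul (h : Form σ f) (a : ℕ)
    (ha : ∀ u, u ≠ 0 → f u u = 0 → Nat.card {v : ι → F // f v v = 0 ∧ f v u = 0 ∧ v ∉ Submodule.span F {u}} = a) :
    Nat.card {W : Submodule F (ι → F) // Module.finrank F W = 2 ∧ ∀ u ∈ W, ∀ v ∈ W, f u v = 0} *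
      ((Fintype.card F ^ 2 - 1) * (Fintype.card F ^ 2 - Fintype.card F)) =
    Nat.card {u : ι → F // u ≠ 0 ∧ f u u = 0} * a := by
  classical
  let S := Σ u : {u : ι → F // u ≠ 0 ∧ f u u = 0}, {v : ι → F // f v v = 0 ∧ f v u.1 = 0 ∧ v ∉ Submodule.span F {u.1}}
  let P := {W : Submodule F (ι → F) // Module.finrank F W = 2 ∧ ∀ u ∈ W, ∀ v ∈ W, f u v = 0}
  have hS : Nat.card S = Nat.card {u : ι → F // u ≠ 0 ∧ f u u = 0} * a := by
    rw [Nat.card_sigma, Finset.sum_congr rfl (fun u _ => ha u.1 u.2.1 u.2.2), Finset.sum_const, Finset.card_univ,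
      smul_eq_mul, Nat.card_eq_fintype_card]
  have hli : ∀ s : S, LinearIndependent F ![s.2.1, s.1.1] := fun s => by
    rw [linearIndependent_fin2]
    exact ⟨s.1.2.1, fun c e => s.2.2.2.2 (Submodule.mem_span_singleton.2 ⟨c, e⟩)⟩
  let π : S → P := fun s => ⟨Submodule.span F {s.2.1, s.1.1}, by
    have := finrank_span_eq_card (hli s)
    rw [Matrix.range_cons_cons_empty, Fintype.card_fin] at this
    exact this, fun x hx y hy => by
      obtain ⟨c, d, rfl⟩ := Submodule.mem_span_pair.1 hx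
      obtain ⟨c', d', rfl⟩ := Submodule.mem_span_pair.1 hy
      rw [h.add_left, h.smul_left, h.smul_left, h.add_right, h.add_right, h.smul_right, h.smul_right, h.smul_right,
        h.smul_right, s.2.2.1, s.2.2.2.1, h.refl _ _ s.2.2.2.1, s.1.2.2]
      ring⟩
  have hfib : ∀ W : P, Nat.card {s : S // π s = W} =
      (Fintype.card F ^ 2 - 1) * (Fintype.card F ^ 2 - Fintype.card F) := by
    intro W
    have hcard := card_linearIndependent (K := F) (V := W.1) (k := 2) (by rw [W.2.1])
    rw [W.2.1, Fin.prod_univ_two] at hcard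
    simp only [Fin.val_zero, pow_zero, Fin.val_one, pow_one] at hcard
    rw [← hcard]
    refine Nat.card_congr
      { toFun := fun s => ⟨![⟨s.1.2.1, ?_⟩, ⟨s.1.1.1, ?_⟩], ?_⟩
        invFun := fun t => ⟨⟨⟨(t.1 1).1, ?_, W.2.2 _ (t.1 1).2 _ (t.1 1).2⟩,
          ⟨(t.1 0).1, W.2.2 _ (t.1 0).2 _ (t.1 0).2, W.2.2 _ (t.1 0).2 _ (t.1 1).2, ?_⟩⟩, ?_⟩
        left_inv := fun s => rfl
        right_inv := fun t => ?_ }
    · rw [← congrArg Subtype.val s.2]; exact Submodule.subset_span (by simp)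
    · rw [← congrArg Subtype.val s.2]; exact Submodule.subset_span (by simp)
    · rw [linearIndependent_fin2]
      exact ⟨fun e => s.1.1.2.1 (congrArg Subtype.val e), fun c e =>
        s.1.2.2.2.2 (Submodule.mem_span_singleton.2 ⟨c, congrArg Subtype.val e⟩)⟩
    · exact fun e => (linearIndependent_fin2.1 t.2).1 (Subtype.ext e)
    · intro hmem
      obtain ⟨c, hc⟩ := Submodule.mem_span_singleton.1 hmem
      exact (linearIndependent_fin2.1 t.2).2 c (Subtype.ext hc)
    · refine Subtype.ext (Submodule.eq_of_le_of_finrank_eq (Submodule.span_le.2 ?_) ?_)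
      · rintro x (rfl | rfl)
        · exact (t.1 0).2
        · exact (t.1 1).2
      · rw [(π _).2.1, W.2.1]
    · refine Subtype.ext (funext fun i => ?_)
      fin_cases i <;> rfl
  rw [← hS, ← Nat.card_congr (Equiv.sigmaFiberEquiv π), Nat.card_sigma]
  rw [Finset.sum_congr rfl (fun W _ => hfib W), Finset.sum_const, Finset.card_univ, smul_eq_mul,
    Nat.card_eq_fintype_card]

end CfsgLib.Forms.SingularLines
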