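import Mathlib
import Cfsg.Agent.Lib.Forms.Classify
import Cfsg.Agent.Lib.Orth.Models

/-! Parity of the two value counts of an odd-dimensional quadratic form over a field of odd order. -/
set_option autoImplicit false

namespace CfsgLib.Forms.SphereParity

variable {F : Type*} [Field F] [Fintype F]

theorem ringChar_ne (h2 : (2 : F) ≠ 0) : ringChar F ≠ 2 := fun h => h2 (by
  haveI : CharP F 2 := ringChar.of_eq h
  exact CharTwo.two_eq_zero)

theorem oddQ_nondeg (h2 : (2 : F) ≠ 0) (m : ℕ) :
    (QuadraticMap.polarBilin (CfsgLib.Orth.Models.oddQ F m)).Nondegenerate := by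
  have key : ∀ u, (∀ y, QuadraticMap.polar (CfsgLib.Orth.Models.oddQ F m) u y = 0) → u = 0 := fun u hu => by
    by_contra h
    obtain ⟨y, hy⟩ := CfsgLib.Orth.Models.nondeg_odd h2 m u h
    exact hy (hu y)
  exact ⟨key, fun u hu => key u fun y => by rw [QuadraticMap.polar_comm]; exact hu y⟩

theorem card_zero {W : Type*} [AddCommGroup W] [Module F W] [FiniteDimensional F W] (h2 : (2 : F) ≠ 0) {m : ℕ}
    (hW : Module.finrank F W = 2 * m + 1) (R : QuadraticForm F W) (hR : (QuadraticMap.polarBilin R).Nondegenerate) :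
    Nat.card {v : W // R v = 0} = Fintype.card F ^ (2 * m) := by
  obtain ⟨g, c, hc, hg⟩ := Classify.similar_of_odd h2 (even_two_mul m)
    (show Module.finrank F (Unit ⊕ (Fin m ⊕ Fin m) → F) = 2 * m + 1 by simp; omega) hW
    (CfsgLib.Orth.Models.oddQ F m) R (oddQ_nondeg h2 m) hR
  rw [← CfsgLib.Orth.Models.card_zero_odd m]
  refine (Nat.card_congr (Equiv.subtypeEquiv g.toEquiv fun v => ?_)).symm
  show _ ↔ R (g v) = 0
  rw [hg]; simp [hc]

/-- the numbers of vectors of value one and of nonsquare value differ by 2 modulo 4 -/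
theorem values_mod_four {W : Type*} [AddCommGroup W] [Module F W] [FiniteDimensional F W] (h2 : (2 : F) ≠ 0) {m : ℕ}
    (hW : Module.finrank F W = 2 * m + 1) (R : QuadraticForm F W) (hR : (QuadraticMap.polarBilin R).Nondegenerate)
    {α : F} (hα : ¬ IsSquare α) :
    ∃ a b : ℕ, Nat.card {v : W // R v = 1} = 2 * a ∧ Nat.card {v : W // R v = α} = 2 * b ∧ (a + b) % 2 = 1 := by
  classical
  haveI : Finite W := Module.finite_of_finite F
  haveI : Fintype W := Fintype.ofFinite W
  have hα0 : α ≠ 0 := by rintro rfl; exact hα IsSquare.zero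
  have hF := ringChar_ne h2
  set Z := Nat.card {v : W // R v = 0} with hZ
  have scale : ∀ (d : F) (r : Fˣ), Nat.card {v : W // R v = (r : F) * r * d} = Nat.card {v : W // R v = d} := by
    intro d r
    refine (Nat.card_congr (Equiv.subtypeEquiv (LinearEquiv.smulOfUnit r : W ≃ₗ[F] W).toEquiv fun v => ?_)).symm
    show _ ↔ R (r • v) = _
    rw [Units.smul_def, QuadraticMap.map_smul, smul_eq_mul, mul_right_inj' (mul_ne_zero r.ne_zero r.ne_zero)]
  have pairs : ∀ d : F, d ≠ 0 → Nat.card {p : W × F // R p.1 = d * p.2 ^ 2} =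
      Z + (Fintype.card F - 1) * Nat.card {v : W // R v = d} := by
    intro d hd
    rw [Nat.card_congr (show {p : W × F // R p.1 = d * p.2 ^ 2} ≃ Σ r : F, {v : W // R v = d * r ^ 2} from
      ⟨fun p => ⟨p.1.2, ⟨p.1.1, p.2⟩⟩, fun q => ⟨(q.2.1, q.1), q.2.2⟩, fun p => rfl, fun q => rfl⟩), Nat.card_sigma,
      ← Finset.add_sum_erase _ _ (Finset.mem_univ (0 : F))]
    congr 1
    · rw [hZ, show d * (0 : F) ^ 2 = 0 by ring]
    · rw [Finset.sum_congr rfl (g := fun _ => Nat.card {v : W // R v = d}) fun r hr => ?_, Finset.sum_const, smul_eq_mul,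
        Finset.card_erase_of_mem (Finset.mem_univ _), Finset.card_univ]
      rw [show d * r ^ 2 = r * r * d by ring]
      exact scale d (Units.mk0 r (Finset.ne_of_mem_erase hr))
  have total : Nat.card {p : W × F // R p.1 = 1 * p.2 ^ 2} + Nat.card {p : W × F // R p.1 = α * p.2 ^ 2} =
      2 * Fintype.card W := by
    have e : ∀ d : F, Nat.card {p : W × F // R p.1 = d * p.2 ^ 2} = ∑ v : W, Nat.card {x : F // R v = d * x ^ 2} := by
      intro d
      rw [Nat.card_congr (Equiv.subtypeProdEquivSigmaSubtype fun (v : W) (x : F) => R v = d * x ^ 2), Nat.card_sigma]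
    rw [e, e, ← Finset.sum_add_distrib, Finset.sum_congr rfl (g := fun _ => 2) fun v _ => ?_, Finset.sum_const,
      Finset.card_univ, smul_eq_mul, mul_comm]
    have hcnt : ∀ d : F, d ≠ 0 → (Nat.card {x : F // R v = d * x ^ 2} : ℤ) = quadraticChar F (R v / d) + 1 := by
      intro d hd
      rw [← quadraticChar_card_sqrts hF (R v / d), Nat.card_eq_fintype_card, Set.toFinset_card]
      norm_cast
      refine Fintype.card_congr (Equiv.subtypeEquivRight fun x => ?_)
      show _ ↔ x ^ 2 = R v / d
      rw [eq_div_iff hd, eq_comm, mul_comm]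
    have h := congrArg₂ (· + ·) (hcnt 1 one_ne_zero) (hcnt α hα0)
    simp only [div_one] at h
    have hχ : quadraticChar F α⁻¹ = -1 :=
      quadraticChar_neg_one_iff_not_isSquare.2 (fun hs => hα (by simpa using hs.inv))
    rw [show R v / α = R v * α⁻¹ from div_eq_mul_inv _ _, map_mul, hχ] at h
    exact_mod_cast (h.trans (by ring) : (Nat.card {x : F // R v = 1 * x ^ 2} : ℤ) +
      Nat.card {x : F // R v = α * x ^ 2} = 2)
  rw [pairs 1 one_ne_zero, pairs α hα0] at total
  have hcardW : Fintype.card W = Fintype.card F ^ (2 * m + 1) := by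
    rw [Module.card_eq_pow_finrank (K := F) (V := W), hW]
  rw [hZ, card_zero h2 hW R hR, hcardW, pow_succ] at total
  have hsum : Nat.card {v : W // R v = 1} + Nat.card {v : W // R v = α} = 2 * Fintype.card F ^ (2 * m) := by
    have hq : 2 ≤ Fintype.card F := Fintype.one_lt_card
    refine Nat.eq_of_mul_eq_mul_left (show 0 < Fintype.card F - 1 by omega) ?_
    zify [show 1 ≤ Fintype.card F by omega] at total ⊢
    linear_combination total
  have even : ∀ d : F, d ≠ 0 → ∃ a, Nat.card {v : W // R v = d} = 2 * a := by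
    intro d hd
    haveI : Fact (Nat.Prime 2) := ⟨Nat.prime_two⟩
    let σ : Equiv.Perm {v : W // R v = d} :=
      { toFun := fun v => ⟨-v.1, by rw [QuadraticMap.map_neg, v.2]⟩
        invFun := fun v => ⟨-v.1, by rw [QuadraticMap.map_neg, v.2]⟩
        left_inv := fun v => Subtype.ext (neg_neg _)
        right_inv := fun v => Subtype.ext (neg_neg _) }
    have hsupp : σ.support = Finset.univ := Finset.eq_univ_of_forall fun v => by
      rw [Equiv.Perm.mem_support]
      intro h
      have h' : -v.1 = v.1 := congrArg Subtype.val h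
      have hv0 : (2 : F) • v.1 = 0 := by rw [two_smul]; nth_rewrite 1 [← h']; exact neg_add_cancel _
      have := v.2
      rw [(smul_eq_zero.1 hv0).resolve_left h2, QuadraticMap.map_zero] at this
      exact hd this.symm
    have hmod := Equiv.Perm.card_compl_support_modEq (p := 2) (n := 1) (σ := σ)
      (by rw [pow_one, pow_two]; exact Equiv.ext fun v => Subtype.ext (neg_neg _))
    rw [hsupp, Finset.compl_univ, Finset.card_empty] at hmod
    rw [Nat.card_eq_fintype_card]
    exact ⟨_, (Nat.mul_div_cancel' (Nat.dvd_of_mod_eq_zero hmod.symm)).symm⟩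
  obtain ⟨a, ha⟩ := even 1 one_ne_zero
  obtain ⟨b, hb⟩ := even α hα0
  have hodd : Fintype.card F ^ (2 * m) % 2 = 1 := by
    rw [Nat.pow_mod, FiniteField.odd_card_of_char_ne_two hF]; simp
  exact ⟨a, b, ha, hb, by omega⟩

end CfsgLib.Forms.SphereParity
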