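import Mathlib
import Cfsg.Agent.Lib.QuadClass.Disc

/-! The type of an even-dimensional symmetric form by its discriminant, and tensor products of forms. -/
set_option autoImplicit false

namespace CfsgLib.Forms.TensorType
open scoped Kronecker
open Module CfsgLib.QuadClass CfsgLib.Orth.Hyperbolic CfsgLib.Orth.Models

variable {F : Type*} [Field F] {V : Type*} [AddCommGroup V] [Module F V]

/-- in odd characteristic a symmetric form of dimension `2n` has a totally isotropic half iff its discriminant is a square -/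
theorem half_iff [Finite F] [FiniteDimensional F V] (h2 : (2 : F) ≠ 0) {ι : Type*} [Fintype ι] [DecidableEq ι]
    (B : LinearMap.BilinForm F V) (hS : ∀ x y, B x y = B y x) (b : Basis ι F V)
    (hdet : (LinearMap.BilinForm.toMatrix b B).det ≠ 0) (n : ℕ) (hn : 1 ≤ n) (hd : finrank F V = 2 * n) :
    (∃ X : Submodule F V, finrank F X = n ∧ ∀ x ∈ X, ∀ y ∈ X, B x y = 0) ↔
      IsSquare ((-1) ^ n * (LinearMap.BilinForm.toMatrix b B).det) := by
  obtain ⟨m, rfl⟩ : ∃ m, n = m + 1 := ⟨n - 1, by omega⟩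
  set Q := LinearMap.BilinMap.toQuadraticMap B with hQ
  have hQapp : ∀ x, Q x = B x x := fun x => LinearMap.BilinMap.toQuadraticMap_apply B x
  have hpol : ∀ x y, QuadraticMap.polar Q x y = 2 * B x y := fun x y => by
    simp only [QuadraticMap.polar, hQapp, map_add, LinearMap.add_apply]
    rw [hS y x]; ring
  have hnd : B.Nondegenerate := LinearMap.BilinForm.nondegenerate_of_det_ne_zero B b hdet
  have hndQ : Nondeg Q := fun u hu => by
    by_contra h
    push Not at h
    exact hu (hnd.1 u fun y => (mul_eq_zero.1 ((hpol u y).symm.trans (h y))).resolve_left h2)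
  have hgram : gram Q b = (2 : F) • LinearMap.BilinForm.toMatrix b B := by
    ext i j
    simp [gram, hpol, LinearMap.BilinForm.toMatrix_apply]
  have hTS : (∃ X : Submodule F V, finrank F X = m + 1 ∧ ∀ x ∈ X, ∀ y ∈ X, B x y = 0) ↔
      ∃ U : Submodule F V, (∀ u ∈ U, Q u = 0) ∧ finrank F U = m + 1 := by
    constructor
    · rintro ⟨X, hX, hz⟩
      exact ⟨X, fun u hu => by rw [hQapp]; exact hz u hu u hu, hX⟩
    · rintro ⟨U, hz, hU⟩
      refine ⟨U, hU, fun x hx y hy => (mul_eq_zero.1 ((hpol x y).symm.trans ?_)).resolve_left h2⟩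
      simp only [QuadraticMap.polar, hz _ hx, hz _ hy, hz _ (add_mem hx hy), sub_zero]
  have hcard : Fintype.card ι = 2 * (m + 1) := by rw [← finrank_eq_card_basis b, hd]
  rw [hTS, ← has_max_singular_iff m hndQ hd, isSquare_disc_even_iff m h2 Q hndQ hd b, hgram, Matrix.det_smul, hcard]
  constructor
  · rintro ⟨s, hs⟩
    refine ⟨s / 2 ^ (m + 1), ?_⟩
    field_simp
    linear_combination hs
  · rintro ⟨s, hs⟩
    exact ⟨s * 2 ^ (m + 1), by linear_combination (2 ^ (2 * (m + 1))) * hs⟩

variable {U W : Type*} [AddCommGroup U] [Module F U] [AddCommGroup W] [Module F W]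
  {ι κ : Type*} [Fintype ι] [DecidableEq ι] [Fintype κ] [DecidableEq κ]

theorem tmul_apply (B₁ : LinearMap.BilinForm F U) (B₂ : LinearMap.BilinForm F W) (u u' : U) (w w' : W) :
    (B₁.tmul B₂) (u ⊗ₜ[F] w) (u' ⊗ₜ[F] w') = B₁ u u' * B₂ w w' := by
  show B₂ w w' • B₁ u u' = _
  rw [smul_eq_mul, mul_comm]

theorem toMatrix_tmul (B₁ : LinearMap.BilinForm F U) (B₂ : LinearMap.BilinForm F W) (b : Basis ι F U) (c : Basis κ F W) :
    LinearMap.BilinForm.toMatrix (b.tensorProduct c) (B₁.tmul B₂) =
      LinearMap.BilinForm.toMatrix b B₁ ⊗ₖ LinearMap.BilinForm.toMatrix c B₂ := by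
  ext ⟨i, j⟩ ⟨k, l⟩
  simp [LinearMap.BilinForm.toMatrix_apply, Matrix.kroneckerMap_apply, Basis.tensorProduct_apply', tmul_apply]
  exact mul_comm _ _

theorem det_ne (B : LinearMap.BilinForm F U) (hB : B.Nondegenerate) (b : Basis ι F U) :
    (LinearMap.BilinForm.toMatrix b B).det ≠ 0 := (LinearMap.BilinForm.nondegenerate_iff_det_ne_zero b).1 hB

theorem det_tmul (B₁ : LinearMap.BilinForm F U) (B₂ : LinearMap.BilinForm F W) (b : Basis ι F U) (c : Basis κ F W) :
    (LinearMap.BilinForm.toMatrix (b.tensorProduct c) (B₁.tmul B₂)).det =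
      (LinearMap.BilinForm.toMatrix b B₁).det ^ Fintype.card κ * (LinearMap.BilinForm.toMatrix c B₂).det ^ Fintype.card ι := by
  rw [toMatrix_tmul, Matrix.det_kronecker]

theorem nondeg_tmul [FiniteDimensional F U] [FiniteDimensional F W] (B₁ : LinearMap.BilinForm F U)
    (B₂ : LinearMap.BilinForm F W) (h₁ : B₁.Nondegenerate) (h₂ : B₂.Nondegenerate) : (B₁.tmul B₂).Nondegenerate := by
  let b := Module.finBasis F U
  let c := Module.finBasis F W
  refine LinearMap.BilinForm.nondegenerate_of_det_ne_zero _ (b.tensorProduct c) ?_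
  rw [det_tmul]
  exact mul_ne_zero (pow_ne_zero _ (det_ne B₁ h₁ b)) (pow_ne_zero _ (det_ne B₂ h₂ c))

theorem tmul_symm (B₁ : LinearMap.BilinForm F U) (B₂ : LinearMap.BilinForm F W)
    (h : ∀ u u' w w', B₁ u u' * B₂ w w' = B₁ u' u * B₂ w' w) (x y : TensorProduct F U W) :
    (B₁.tmul B₂) x y = (B₁.tmul B₂) y x := by
  induction x using TensorProduct.induction_on with
  | zero => simp
  | tmul u w =>
    induction y using TensorProduct.induction_on with
    | zero => simp
    | tmul u' w' => rw [tmul_apply, tmul_apply, h]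
    | add a a' ha ha' => simp only [map_add, LinearMap.add_apply, ha, ha']
  | add a a' ha ha' => simp only [map_add, LinearMap.add_apply, ha, ha']

end CfsgLib.Forms.TensorType
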