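import Mathlib
import Cfsg.Agent.Lib.Forms.SingularLines
import Cfsg.Agent.Lib.Unitary.Count

/-! Totally isotropic lines of a Hermitian space. -/
set_option autoImplicit false

namespace CfsgLib.Forms.UnitaryLines
open CfsgLib.Forms.Families CfsgLib.Unitary.FieldNorm CfsgLib.Unitary.Basic CfsgLib.Unitary.Count

variable {F : Type*} [Field F] [Fintype F] {q m : ℕ}

theorem card_lines_mul (hF : Fintype.card F = q ^ 2) :
    Nat.card {W : Submodule F (Fin (m + 2) → F) // Module.finrank F W = 2 ∧
      ∀ u ∈ W, ∀ v ∈ W, Cfsg.hermForm (m + 2) F q u v = 0} *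
      ((Fintype.card F ^ 2 - 1) * (Fintype.card F ^ 2 - Fintype.card F)) =
    (N F q (m + 2) (0 : F) - 1) * (Fintype.card F * (N F q m (0 : F) - 1)) := by
  classical
  have hq0 := q_ne_zero hF
  have h : Form (fun c : F => c ^ q) (Cfsg.hermForm (m + 2) F q) :=
    { add_left := fun x y v => H_add_left x y v
      smul_left := fun c x v => H_smul_left c x v
      add_right := fun v x y => H_add_right hF v x y
      smul_right := fun c v x => H_smul_right c v x
      refl := fun x y e => by rw [← H_conj hF x y, e, zero_pow hq0] }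
  have hnd : ∀ (l : ℕ) (u : Fin l → F), (∀ v, Cfsg.hermForm l F q u v = 0) → u = 0 := fun l u hu => funext fun i => by
    rw [← H_single_right hq0 u i, hu]; rfl
  have hnorm : ∀ W : Submodule F (Fin (m + 2) → F), W ≠ ⊥ →
      (∀ u ∈ W, (∀ v ∈ W, Cfsg.hermForm (m + 2) F q u v = 0) → u = 0) →
        ∃ u ∈ W, Cfsg.hermForm (m + 2) F q u u = 1 := by
    intro W hW0 hWn
    obtain ⟨u, hu, hu0⟩ : ∃ u ∈ W, Cfsg.hermForm (m + 2) F q u u ≠ 0 := by
      by_contra hno
      push Not at hno
      obtain ⟨x, hx, hx0⟩ := Submodule.exists_mem_ne_zero_of_ne_bot hW0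
      refine hx0 (hWn x hx fun y hy => ?_)
      by_contra hxy
      obtain ⟨s, hs⟩ : ∃ s : F, s + s ^ q ≠ 0 := by
        by_contra hs
        push Not at hs
        have h1 := hs 1
        rw [one_pow] at h1
        have hid : ∀ s : F, s ^ q = s := fun s => by linear_combination hs s - s * h1
        obtain ⟨t, ht, -, ht2⟩ := exists_unit_ne_one hF
        apply ht2
        rw [pow_succ, hid t] at ht
        rw [sq]; exact ht
      have hval := hno ((s / Cfsg.hermForm (m + 2) F q x y) • x + y) (add_mem (W.smul_mem _ hx) hy)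
      simp only [H_add_left, H_add_right hF, H_smul_left, H_smul_right, hno x hx, hno y hy, mul_zero, add_zero,
        zero_add] at hval
      rw [← H_conj hF x y, ← mul_pow, div_mul_cancel₀ _ hxy] at hval
      exact hs (by linear_combination hval)
    set c := Cfsg.hermForm (m + 2) F q u u with hc
    have hfix : (c⁻¹) ^ q = c⁻¹ := by rw [inv_pow, H_self_fixed hF u]
    have hcard := card_norm_fiber hF (inv_ne_zero hu0) hfix
    obtain ⟨⟨t, ht⟩⟩ : Nonempty {t : F // t ^ (q + 1) = c⁻¹} := (Nat.card_pos_iff.1 (by omega)).1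
    refine ⟨t • u, W.smul_mem _ hu, ?_⟩
    rw [H_smul_left, H_smul_right, ← mul_assoc, ← pow_succ', ht, inv_mul_cancel₀ hu0]
  have hiso : ∀ l : ℕ, Nat.card {z : Fin l → F // z ≠ 0 ∧ Cfsg.hermForm l F q z z = 0} = N F q l (0 : F) - 1 := by
    intro l
    have h0 : (0 : Fin l → F) ∈ {z : Fin l → F | Cfsg.hermForm l F q z z = 0} := by simp [Cfsg.hermForm]
    show _ = Nat.card ↥{z : Fin l → F | Cfsg.hermForm l F q z z = 0} - 1
    rw [Nat.card_coe_set_eq, ← Set.ncard_sdiff_singleton_of_mem h0, ← Nat.card_coe_set_eq]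
    exact Nat.card_congr (Equiv.subtypeEquivRight fun z => by simp [and_comm])
  rw [← hiso, ← hiso]
  refine SingularLines.card_mul h _ fun u hu0 huu => ?_
  obtain ⟨w, hw⟩ : ∃ w, Cfsg.hermForm (m + 2) F q w u = 1 := by
    obtain ⟨i, hi⟩ := Function.ne_iff.1 hu0
    refine ⟨(u i ^ q)⁻¹ • Pi.single i 1, ?_⟩
    rw [H_smul_left, H_single_left, inv_mul_cancel₀ (pow_ne_zero q hi)]
  have huw : Cfsg.hermForm (m + 2) F q u w = 1 := by rw [← H_conj hF w u, hw, one_pow]
  set f := Cfsg.hermForm (m + 2) F q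
  have hval : ∀ (a : Fin 2 → F) (x : Fin (m + 2) → F), f (∑ i, a i • ![u, w] i) x = a 0 * f u x + a 1 * f w x :=
    fun a x => by rw [sum_left h, Fin.sum_univ_two, h.smul_left, h.smul_left]; rfl
  have hW : ∀ x ∈ Submodule.span F ({u, w} : Set (Fin (m + 2) → F)),
      (∀ y ∈ Submodule.span F ({u, w} : Set (Fin (m + 2) → F)), f x y = 0) → x = 0 := by
    intro x hx hxy
    obtain ⟨c, d, rfl⟩ := Submodule.mem_span_pair.1 hx
    have h1 := hxy u (Submodule.subset_span (by simp))
    rw [h.add_left, h.smul_left, h.smul_left, huu, hw, mul_zero, zero_add, mul_one] at h1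
    have h2 := hxy w (Submodule.subset_span (by simp))
    rw [h.add_left, h.smul_left, h.smul_left, huw, h1, zero_mul, add_zero, mul_one] at h2
    rw [h1, h2, zero_smul, zero_smul, add_zero]
  obtain ⟨hd, hK⟩ := complement h (hnd (m + 2)) hW
  have hli : LinearIndependent F ![u, w] := by
    rw [LinearIndependent.pair_iff]
    intro c d hcd
    have h1 := congrArg (fun z => f z u) hcd
    have h2 := congrArg (fun z => f z w) hcd
    simp only [h.add_left, h.smul_left, huu, hw, huw, zero_left h, mul_zero, zero_add, mul_one] at h1 h2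
    rw [h1, zero_mul, add_zero] at h2
    exact ⟨h2, h1⟩
  have hfr : Module.finrank F (Submodule.span F ({u, w} : Set (Fin (m + 2) → F))) = 2 := by
    have := finrank_span_eq_card hli
    rw [Matrix.range_cons_cons_empty, Fintype.card_fin] at this
    exact this
  rw [hfr, Fintype.card_fin] at hd
  obtain ⟨e, he, hee⟩ := unit_family h hnorm m _ (show Module.finrank F (perp h (Submodule.span F {u, w})) = m by omega) hK
  have hsum : ∀ a a' : Fin m → F, f (∑ i, a i • e i) (∑ i, a' i • e i) = Cfsg.hermForm m F q a a' := fun a a' => by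
    rw [expand h]
    simp only [hee]
    simp [Cfsg.hermForm]
  obtain ⟨E, hE, -, hEf⟩ := exists_split h ![u, w] e
    (f₁ := fun a a' => f (∑ i, a i • ![u, w] i) (∑ i, a' i • ![u, w] i)) (fun a a' => rfl) hsum
    (fun i j => h.refl _ _ (he j _ (Submodule.subset_span (by fin_cases i <;> simp))))
    (fun a ha => by
      have hmem : (∑ i, a i • ![u, w] i) ∈ Submodule.span F ({u, w} : Set (Fin (m + 2) → F)) :=
        Submodule.sum_mem _ fun i _ => Submodule.smul_mem _ _ (Submodule.subset_span (by fin_cases i <;> simp))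
      have h0 := hW _ hmem fun y hy => by
        obtain ⟨c, d, rfl⟩ := Submodule.mem_span_pair.1 hy
        have := ha ![c, d]
        rw [Fin.sum_univ_two (f := fun i => ![c, d] i • ![u, w] i)] at this
        exact this
      exact funext fun i => (Fintype.linearIndependent_iff.1 hli a h0) i)
    (hnd m) (by simp only [Fintype.card_fin]; omega) (Submodule.span F {u, w})
    (fun i => Submodule.subset_span (by fin_cases i <;> simp)) (by rw [hfr, Fintype.card_fin])
  have hu_eq : ∀ c : F, E (![c, 0], 0) = c • u := fun c => by rw [hEf]; simp [Fin.sum_univ_two]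
  have hfu : ∀ a b, f (E (a, b)) u = a 1 := fun a b => by
    have := hE a b ![1, 0] 0
    rw [hu_eq, one_smul] at this
    rw [this]
    have h2 : Cfsg.hermForm m F q b 0 = 0 := by simp [Cfsg.hermForm, hq0]
    rw [h2, add_zero, hval, Fin.sum_univ_two]
    simp [huu, hw]
  have hff : ∀ a b, a 1 = 0 → f (E (a, b)) (E (a, b)) = Cfsg.hermForm m F q b b := fun a b ha => by
    rw [hE, add_eq_right, hval, Fin.sum_univ_two, ha]
    simp [h.smul_right, huu]
  rw [← Nat.card_eq_fintype_card, ← Nat.card_prod]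
  refine (Nat.card_congr
    { toFun := fun p => ⟨E (![p.1, 0], p.2.1), ?_, ?_, ?_⟩
      invFun := fun v => ((E.symm v.1).1 0, ⟨(E.symm v.1).2, ?_, ?_⟩)
      left_inv := fun p => ?_
      right_inv := fun v => ?_ }).symm
  rotate_left 2
  · rw [hff _ _ (by simp)]; exact p.2.2.2
  · rw [hfu]; simp
  · intro hmem
    obtain ⟨c, hc⟩ := Submodule.mem_span_singleton.1 hmem
    rw [← hu_eq] at hc
    exact p.2.2.1 (congrArg Prod.snd (E.injective hc)).symm
  · intro hz
    apply v.2.2.2
    obtain ⟨⟨a, b⟩, hab⟩ := E.surjective v.1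
    rw [← hab, E.symm_apply_apply] at hz
    subst hz
    have ha : a 1 = 0 := by rw [← hfu a 0, hab]; exact v.2.2.1
    rw [← hab, show a = ![a 0, 0] by funext i; fin_cases i <;> simp [ha], hu_eq]
    exact Submodule.smul_mem _ _ (Submodule.mem_span_singleton_self u)
  · obtain ⟨⟨a, b⟩, hab⟩ := E.surjective v.1
    have ha : a 1 = 0 := by rw [← hfu a b, hab]; exact v.2.2.1
    rw [← hab, E.symm_apply_apply, ← hff a b ha, hab]
    exact v.2.1
  · simp
  · refine Subtype.ext ?_
    obtain ⟨⟨a, b⟩, hab⟩ := E.surjective v.1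
    have ha : a 1 = 0 := by rw [← hfu a b, hab]; exact v.2.2.1
    show E (![(E.symm v.1).1 0, 0], (E.symm v.1).2) = v.1
    rw [← hab, E.symm_apply_apply]
    congr 2
    funext i; fin_cases i <;> simp [ha]

end CfsgLib.Forms.UnitaryLines
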