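import Mathlib
import Cfsg.Agent.Lib.Forms.Witt

/-! Witt's theorem for nondegenerate Hermitian forms. -/
set_option autoImplicit false

namespace CfsgLib.Forms.WittHerm
open CfsgLib.Forms.Witt

variable {F V : Type*} [Field F] [AddCommGroup V] [Module F V] [FiniteDimensional F V]
  (σ : F →+* F) (B : V →ₛₗ[σ] V →ₗ[F] F)

theorem exists_vec (hσ2 : ∀ a : F, σ (σ a) = a) (hS : B.IsSymm) (hB : B.Nondegenerate) (f : V →ₗ[F] F) :
    ∃ v, ∀ z, B v z = f z := by
  let e := Module.finBasis F V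
  let T : V →ₗ[F] (Fin (Module.finrank F V) → F) := LinearMap.pi fun i => B (e i)
  have inj : Function.Injective T := by
    intro p q h
    refine sub_eq_zero.1 (hB.2 _ fun z => ?_)
    have hz : z = ∑ i, e.repr z i • e i := (e.sum_repr z).symm
    have hi : ∀ i, B (e i) (p - q) = 0 := fun i => by rw [map_sub]; exact sub_eq_zero.2 (congrFun h i)
    rw [hz, map_sum, LinearMap.sum_apply]
    exact Finset.sum_eq_zero fun i _ => by rw [LinearMap.map_smulₛₗ, LinearMap.smul_apply, hi, smul_zero]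
  obtain ⟨v, hv⟩ := (LinearMap.injective_iff_surjective_of_finrank_eq_finrank (show Module.finrank F V = Module.finrank F (Fin (Module.finrank F V) → F) by simp)).1 inj
    (fun i => σ (f (e i)))
  refine ⟨v, fun z => ?_⟩
  have : B v = f := e.ext fun i => by
    have hi : B (e i) v = σ (f (e i)) := congrFun hv i
    rw [← hS.eq, hi, hσ2]
  rw [this]

theorem exists_trace (hσ : σ ≠ RingHom.id F) (hσ2 : ∀ a : F, σ (σ a) = a) (d : F) (hd : σ d = d) :
    ∃ c, d + c + σ c = 0 := by
  obtain ⟨e, he⟩ : ∃ e, e + σ e ≠ 0 := by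
    by_contra h
    push Not at h
    have h1 : (1 : F) + 1 = 0 := by simpa using h 1
    exact hσ (RingHom.ext fun a => by rw [RingHom.id_apply]; linear_combination h a - a * h1)
  refine ⟨-d * e / (e + σ e), ?_⟩
  have he' : σ e + e ≠ 0 := by rwa [add_comm]
  rw [map_div₀, map_mul, map_neg, map_add, hσ2, hd, add_comm (σ e) e]
  field_simp
  ring

theorem step (hσ : σ ≠ RingHom.id F) (hσ2 : ∀ a : F, σ (σ a) = a) (hS : B.IsSymm) (hB : B.Nondegenerate)
    (X₀ : Submodule F V) (x y : V) (hx : x ∉ X₀) (hy : y ∉ X₀)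
    (hk : ∀ z ∈ X₀, ∀ z' ∈ X₀, ∀ a a' : F, B (z + a • y) (z' + a' • y) = B (z + a • x) (z' + a' • x)) :
    ∃ g : V ≃ₗ[F] V, (∀ u v, B (g u) (g v) = B u v) ∧ (∀ z ∈ X₀, g z = z) ∧ g x = y := by
  have hs : ∀ p q, B q p = σ (B p q) := fun p q => (hS.eq p q).symm
  have inj : ∀ (L : V →ₗ[F] V), (∀ p q, B (L p) (L q) = B p q) → ∀ z, L z = 0 → z = 0 := fun L hL z hz =>
    hB.1 z fun q => by rw [← hL, hz, map_zero, LinearMap.zero_apply]
  have hzy : ∀ z ∈ X₀, B z y = B z x := fun z hz => by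
    have := hk z hz 0 X₀.zero_mem 0 1; simpa using this
  have hyy : B y y = B x x := by
    have := hk 0 X₀.zero_mem 0 X₀.zero_mem 1 1; simpa using this
  obtain ⟨w, rfl⟩ : ∃ w, y = x + w := ⟨y - x, by abel⟩
  have hw : ∀ z ∈ X₀, B w z = 0 := fun z hz => by
    have := hzy z hz
    rw [map_add, add_eq_left] at this
    rw [hs z w, this, map_zero]
  have mk : ∀ L : V →ₗ[F] V, (∀ p q, B (L p) (L q) = B p q) → (∀ z ∈ X₀, L z = z) → L x = x + w →
      ∃ g : V ≃ₗ[F] V, (∀ u v, B (g u) (g v) = B u v) ∧ (∀ z ∈ X₀, g z = z) ∧ g x = x + w := fun L hL h1 h2 =>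
    ⟨mkEquiv L (inj L hL), fun u v => hL u v, fun z hz => h1 z hz, h2⟩
  have hsum : B x w + B w x + B w w = 0 := by
    have := hyy
    simp only [map_add, LinearMap.add_apply] at this
    linear_combination this
  by_cases ht : B w x = 0
  swap
  · have hσt : σ (B w x) ≠ 0 := by simpa using ht
    refine mk (LinearMap.id + ((B w x)⁻¹ • B w).smulRight w) (fun p q => ?_) (fun z hz => ?_) ?_
    · rw [hs w x] at hsum
      simp only [LinearMap.add_apply, LinearMap.id_apply, LinearMap.smulRight_apply, LinearMap.smul_apply,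
        map_add, LinearMap.map_smulₛₗ, map_mul, map_inv₀, RingHom.id_apply, smul_eq_mul, hs w p]
      field_simp
      linear_combination (σ (B w p) * B w q) * hsum
    · simp [hw z hz]
    · simp [ht]
  have hxw : B x w = 0 := by rw [hs w x, ht, map_zero]
  have hww : B w w = 0 := by rw [ht, hxw] at hsum; simpa using hsum
  by_cases hmem : x ∈ X₀ ⊔ Submodule.span F {w}
  · obtain ⟨x₀, hx₀, s, hsw, hxe⟩ := Submodule.mem_sup.1 hmem
    obtain ⟨c, rfl⟩ := Submodule.mem_span_singleton.1 hsw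
    subst hxe
    have hc : c ≠ 0 := by rintro rfl; exact hx (by simpa using hx₀)
    have hc1 : c + 1 ≠ 0 := by
      intro h; exact hy (by rw [add_assoc, ← one_smul F w, smul_smul, ← add_smul, mul_one, h, zero_smul, add_zero]; exact hx₀)
    have hwX : w ∉ X₀ := fun h => hx (X₀.add_mem hx₀ (X₀.smul_mem c h))
    obtain ⟨f, hfX, hfw⟩ := exists_functional X₀ w hwX
    obtain ⟨v₀, hv₀⟩ := exists_vec σ B hσ2 hS hB f
    obtain ⟨d, hd⟩ := exists_trace σ hσ hσ2 (B v₀ v₀) (hS.eq v₀ v₀)
    obtain ⟨v, hv, hvv⟩ : ∃ v, (∀ z, B v z = f z + σ d * B w z) ∧ B v v = 0 := by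
      refine ⟨v₀ + d • w, fun z => by simp [hv₀], ?_⟩
      have hwv0 : B w v₀ = 1 := by rw [hs v₀ w, hv₀, hfw, map_one]
      have hv0w : B v₀ w = 1 := by rw [hv₀, hfw]
      simp [hwv0, hv0w, hww]
      linear_combination hd
    have hvw : B v w = 1 := by rw [hv, hfw, hww]; simp
    have hwv : B w v = 1 := by rw [hs v w, hvw, map_one]
    set l : F := (c + 1) / c with hl
    have hl0 : l ≠ 0 := div_ne_zero hc1 hc
    have hl0' : σ l ≠ 0 := by simpa using hl0
    refine mk (LinearMap.id + ((l - 1) • B v).smulRight w + (((σ l)⁻¹ - 1) • B w).smulRight v)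
      (fun p q => ?_) (fun z hz => ?_) ?_
    · simp only [LinearMap.add_apply, LinearMap.id_apply, LinearMap.smulRight_apply, LinearMap.smul_apply,
        map_add, LinearMap.map_smulₛₗ, map_mul, map_sub, map_one, map_inv₀, hσ2, RingHom.id_apply, smul_eq_mul,
        hww, hvv, hvw, hwv]
      rw [hs w p, hs v p]
      field_simp
      ring
    · simp [hw z hz, hv z, hfX z hz]
    · simp [hw x₀ hx₀, hv x₀, hv w, hfX x₀ hx₀, hfw, hww, add_assoc]
      rw [hl]
      match_scalars
      field_simp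
      ring
  · obtain ⟨f, hfX, hfx⟩ := exists_functional _ x hmem
    obtain ⟨v, hv⟩ := exists_vec σ B hσ2 hS hB f
    have hvw : B v w = 0 := by rw [hv]; exact hfX w (Submodule.mem_sup_right (Submodule.mem_span_singleton_self w))
    have hwv : B w v = 0 := by rw [hs v w, hvw, map_zero]
    obtain ⟨c, hc⟩ := exists_trace σ hσ hσ2 (B v v) (hS.eq v v)
    refine mk (LinearMap.id + (-(B w)).smulRight v + (B v + c • B w).smulRight w) (fun p q => ?_) (fun z hz => ?_) ?_
    · simp only [LinearMap.add_apply, LinearMap.id_apply, LinearMap.smulRight_apply, LinearMap.smul_apply,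
        LinearMap.neg_apply, map_add, map_neg, LinearMap.map_smulₛₗ, map_mul, RingHom.id_apply, smul_eq_mul,
        hww, hvw, hwv]
      rw [hs w p, hs v p]
      linear_combination (σ (B w p) * B w q) * hc
    · simp [hw z hz, hv z, hfX z (Submodule.mem_sup_left hz)]
    · simp [ht, hv x, hfx]

end CfsgLib.Forms.WittHerm
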